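import Cfsg.Agent.Lib.CosetCert.D.OnM11.Lv1.Tab
import Cfsg.Agent.Lib.CosetCert.D.OnM11.Lv1.C0
import Cfsg.Agent.Lib.CosetCert.D.OnM11.Lv1.R0
import Cfsg.Agent.Lib.CosetCert.D.OnM11.Lv1.S0

namespace Cfsg.Agent.Lib.CosetCert.D.OnM11.Lv1.Ok

open Cfsg.Agent.Lib.CosetCert Cfsg.Agent.Lib.TC.Core Cfsg.Agent.Lib.TC.Enc Cfsg.Agent.Lib.TC.Pres Cfsg.Agent.Lib.TC.Perm Cfsg.Agent.Lib.TC.Main

set_option maxRecDepth 100000

open Cfsg.Agent.Lib.CosetCert.D.OnM11.Lv1.Tab Cfsg.Agent.Lib.CosetCert.D.OnM11.Tbl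

/-- The point of the orbit. -/
noncomputable def pt : ℕ → ℕ := cell 6 63 (nat_lit 0x9cb2338afada6e3497c513add58b99b05526d9d824d06956a4d3c1)

/-- The index of a point. -/
noncomputable def ptInv : ℕ → ℕ := cell 6 63 (nat_lit 0xb4c78005c079150f7400c08cc14869f0090002806dc41260400d019580055080880021006380000000)

/-- The tree: parents. -/
noncomputable def tp : ℕ → ℕ := cell 6 63 (nat_lit 0x69861651349038e34c2ca2491c71861451430c2082041040000000)

/-- The tree: letters. -/
noncomputable def tl : ℕ → ℕ := cell 2 3 (nat_lit 0xe2e69d9948e278e790)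

theorem hrelk : ∀ l ∈ rels, ∀ z ∈ l, z < L1.k := by decide +kernel

theorem hsubk : ∀ l ∈ subs, ∀ z ∈ l, z < L1.k := by decide +kernel

theorem hrelR : allR (guard 55 (wordFixes F1 rels)) 6 0 = true :=
  Cfsg.Agent.Lib.CosetCert.D.OnM11.Lv1.R0.ok

theorem hsubR : allR (guard 55 (fun x => wordIs F1 F2 subs x 0)) 6 0 = true :=
  Cfsg.Agent.Lib.CosetCert.D.OnM11.Lv1.S0.ok

theorem allC0 : cert.chkRange 0 37 = true := Cfsg.Agent.Lib.CosetCert.D.OnM11.Lv1.C0.ok
theorem allF0 : cert.chkFinal 0 37 = true := Cfsg.Agent.Lib.CosetCert.D.OnM11.Lv1.C0.fin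

theorem h0 : cert.eLvl (cert.par (cert.find cert.MAX cert.D 0)) = cert.MAX := by decide +kernel

theorem hcount : cert.countRoots cert.N = 36 := by
  rw [countRoots_eq_acc]
  decide +kernel

theorem hchecked : Checked cert where
  hN := by decide
  hC := allC0
  hF := allF0
  h0 := h0

theorem h1 : chkRelRots cert inv1 rels witT.get = true := by decide +kernel

theorem h2 : chkSubRots cert subs = true := by decide +kernel

theorem hfix : allLt (fun s => Nat.beq (F2 s 1) 1) 2 = true := by decide +kernel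

theorem horb : allR (guard 36 (orbOK F1 pt ptInv tp tl 4)) 6 0 = true := by decide +kernel

/-- The point. -/
def p : Fin 55 := ⟨1, by decide⟩

theorem h0pt : pt 0 = p := by decide +kernel

/-- The level. -/
theorem result : LevelResult L1.G L2.G p 36 pt :=
  level_of_checks L1 L2 cert rfl rels subs witT.get hrelk
    (all_of_allR (by decide) hrelR) hsubk
    (all_of_allR (by decide) hsubR)
    (by decide) (by decide) h1 h2 hchecked hcount p (fun s hs => Nat.eq_of_beq_eq_true (allLt_spec hfix s hs))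
    pt ptInv tp tl h0pt (all_of_allR (by decide) horb)

end Cfsg.Agent.Lib.CosetCert.D.OnM11.Lv1.Ok
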